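import Cfsg.Agent.Comp.F4M.Mat

set_option autoImplicit false
set_option maxRecDepth 100000

namespace Cfsg.Agent.Comp.F4M
open Cfsg.Agent.Comp

theorem er0 : ∀ e ∈ Er 0, ev Mm e.1 = ev Mm e.2 := mnum.eqs menum mchar Mok (by decide +kernel)

theorem er1 : ∀ e ∈ Er 1, ev Mm e.1 = ev Mm e.2 := mnum.eqs menum mchar Mok (by decide +kernel)

theorem er2 : ∀ e ∈ Er 2, ev Mm e.1 = ev Mm e.2 := mnum.eqs menum mchar Mok (by decide +kernel)

theorem er3 : ∀ e ∈ Er 3, ev Mm e.1 = ev Mm e.2 := mnum.eqs menum mchar Mok (by decide +kernel)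

theorem er4 : ∀ e ∈ Er 4, ev Mm e.1 = ev Mm e.2 := mnum.eqs menum mchar Mok (by decide +kernel)

theorem er5 : ∀ e ∈ Er 5, ev Mm e.1 = ev Mm e.2 := mnum.eqs menum mchar Mok (by decide +kernel)

theorem er6 : ∀ e ∈ Er 6, ev Mm e.1 = ev Mm e.2 := mnum.eqs menum mchar Mok (by decide +kernel)

theorem er7 : ∀ e ∈ Er 7, ev Mm e.1 = ev Mm e.2 := mnum.eqs menum mchar Mok (by decide +kernel)

theorem er8 : ∀ e ∈ Er 8, ev Mm e.1 = ev Mm e.2 := mnum.eqs menum mchar Mok (by decide +kernel)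

theorem er9 : ∀ e ∈ Er 9, ev Mm e.1 = ev Mm e.2 := mnum.eqs menum mchar Mok (by decide +kernel)

theorem er10 : ∀ e ∈ Er 10, ev Mm e.1 = ev Mm e.2 := mnum.eqs menum mchar Mok (by decide +kernel)

theorem er11 : ∀ e ∈ Er 11, ev Mm e.1 = ev Mm e.2 := mnum.eqs menum mchar Mok (by decide +kernel)

end Cfsg.Agent.Comp.F4M
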