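import Cfsg.Agent.Comp.F4M.Mat

set_option autoImplicit false
set_option maxRecDepth 100000

namespace Cfsg.Agent.Comp.F4M
open Cfsg.Agent.Comp

theorem er12 : ∀ e ∈ Er 12, ev Mm e.1 = ev Mm e.2 := mnum.eqs menum mchar Mok (by decide +kernel)

theorem er13 : ∀ e ∈ Er 13, ev Mm e.1 = ev Mm e.2 := mnum.eqs menum mchar Mok (by decide +kernel)

theorem er14 : ∀ e ∈ Er 14, ev Mm e.1 = ev Mm e.2 := mnum.eqs menum mchar Mok (by decide +kernel)

theorem er15 : ∀ e ∈ Er 15, ev Mm e.1 = ev Mm e.2 := mnum.eqs menum mchar Mok (by decide +kernel)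

theorem er16 : ∀ e ∈ Er 16, ev Mm e.1 = ev Mm e.2 := mnum.eqs menum mchar Mok (by decide +kernel)

theorem er17 : ∀ e ∈ Er 17, ev Mm e.1 = ev Mm e.2 := mnum.eqs menum mchar Mok (by decide +kernel)

theorem er18 : ∀ e ∈ Er 18, ev Mm e.1 = ev Mm e.2 := mnum.eqs menum mchar Mok (by decide +kernel)

theorem er19 : ∀ e ∈ Er 19, ev Mm e.1 = ev Mm e.2 := mnum.eqs menum mchar Mok (by decide +kernel)

theorem er20 : ∀ e ∈ Er 20, ev Mm e.1 = ev Mm e.2 := mnum.eqs menum mchar Mok (by decide +kernel)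

theorem er21 : ∀ e ∈ Er 21, ev Mm e.1 = ev Mm e.2 := mnum.eqs menum mchar Mok (by decide +kernel)

theorem er22 : ∀ e ∈ Er 22, ev Mm e.1 = ev Mm e.2 := mnum.eqs menum mchar Mok (by decide +kernel)

theorem er23 : ∀ e ∈ Er 23, ev Mm e.1 = ev Mm e.2 := mnum.eqs menum mchar Mok (by decide +kernel)

end Cfsg.Agent.Comp.F4M
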