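import Cfsg.Agent.Comp.F4M.Mat

set_option autoImplicit false
set_option maxRecDepth 100000

namespace Cfsg.Agent.Comp.F4M
open Cfsg.Agent.Comp

theorem er24 : ∀ e ∈ Er 24, ev Mm e.1 = ev Mm e.2 := mnum.eqs menum mchar Mok (by decide +kernel)

theorem er25 : ∀ e ∈ Er 25, ev Mm e.1 = ev Mm e.2 := mnum.eqs menum mchar Mok (by decide +kernel)

theorem er26 : ∀ e ∈ Er 26, ev Mm e.1 = ev Mm e.2 := mnum.eqs menum mchar Mok (by decide +kernel)

theorem er27 : ∀ e ∈ Er 27, ev Mm e.1 = ev Mm e.2 := mnum.eqs menum mchar Mok (by decide +kernel)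

theorem er28 : ∀ e ∈ Er 28, ev Mm e.1 = ev Mm e.2 := mnum.eqs menum mchar Mok (by decide +kernel)

theorem er29 : ∀ e ∈ Er 29, ev Mm e.1 = ev Mm e.2 := mnum.eqs menum mchar Mok (by decide +kernel)

theorem er30 : ∀ e ∈ Er 30, ev Mm e.1 = ev Mm e.2 := mnum.eqs menum mchar Mok (by decide +kernel)

theorem er31 : ∀ e ∈ Er 31, ev Mm e.1 = ev Mm e.2 := mnum.eqs menum mchar Mok (by decide +kernel)

theorem er32 : ∀ e ∈ Er 32, ev Mm e.1 = ev Mm e.2 := mnum.eqs menum mchar Mok (by decide +kernel)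

theorem er33 : ∀ e ∈ Er 33, ev Mm e.1 = ev Mm e.2 := mnum.eqs menum mchar Mok (by decide +kernel)

theorem er34 : ∀ e ∈ Er 34, ev Mm e.1 = ev Mm e.2 := mnum.eqs menum mchar Mok (by decide +kernel)

theorem er35 : ∀ e ∈ Er 35, ev Mm e.1 = ev Mm e.2 := mnum.eqs menum mchar Mok (by decide +kernel)

end Cfsg.Agent.Comp.F4M
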