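import Cfsg.Agent.Comp.F4M.Mat

set_option autoImplicit false
set_option maxRecDepth 100000

namespace Cfsg.Agent.Comp.F4M
open Cfsg.Agent.Comp

theorem er36 : ∀ e ∈ Er 36, ev Mm e.1 = ev Mm e.2 := mnum.eqs menum mchar Mok (by decide +kernel)

theorem er37 : ∀ e ∈ Er 37, ev Mm e.1 = ev Mm e.2 := mnum.eqs menum mchar Mok (by decide +kernel)

theorem er38 : ∀ e ∈ Er 38, ev Mm e.1 = ev Mm e.2 := mnum.eqs menum mchar Mok (by decide +kernel)

theorem er39 : ∀ e ∈ Er 39, ev Mm e.1 = ev Mm e.2 := mnum.eqs menum mchar Mok (by decide +kernel)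

theorem er40 : ∀ e ∈ Er 40, ev Mm e.1 = ev Mm e.2 := mnum.eqs menum mchar Mok (by decide +kernel)

theorem er41 : ∀ e ∈ Er 41, ev Mm e.1 = ev Mm e.2 := mnum.eqs menum mchar Mok (by decide +kernel)

theorem er42 : ∀ e ∈ Er 42, ev Mm e.1 = ev Mm e.2 := mnum.eqs menum mchar Mok (by decide +kernel)

theorem er43 : ∀ e ∈ Er 43, ev Mm e.1 = ev Mm e.2 := mnum.eqs menum mchar Mok (by decide +kernel)

theorem er44 : ∀ e ∈ Er 44, ev Mm e.1 = ev Mm e.2 := mnum.eqs menum mchar Mok (by decide +kernel)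

theorem er45 : ∀ e ∈ Er 45, ev Mm e.1 = ev Mm e.2 := mnum.eqs menum mchar Mok (by decide +kernel)

theorem er46 : ∀ e ∈ Er 46, ev Mm e.1 = ev Mm e.2 := mnum.eqs menum mchar Mok (by decide +kernel)

theorem er47 : ∀ e ∈ Er 47, ev Mm e.1 = ev Mm e.2 := mnum.eqs menum mchar Mok (by decide +kernel)

end Cfsg.Agent.Comp.F4M
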