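import Cfsg.Agent.Comp.F4M.Tab
import Cfsg.Agent.Comp.F4M.Cert
import Cfsg.Agent.Comp.F4M.E0
import Cfsg.Agent.Comp.F4M.E1
import Cfsg.Agent.Comp.F4M.E2
import Cfsg.Agent.Comp.F4M.E3
import Cfsg.Agent.Mult.Univ
import Cfsg.Agent.S1062

/-! The Schur multiplier of `F₄(2)`. -/

set_option autoImplicit false
set_option maxRecDepth 100000
set_option linter.unusedSectionVars false

namespace Cfsg.Agent.Comp.F4M
open Cfsg.Agent.Comp Cfsg.Lie Cfsg.Agent.Chev Cfsg.Agent.Mult Cfsg.Agent.H2.Schur Subgroup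
open scoped commutatorElement

attribute [local instance] good2F4

universe u

variable {F : Type u} [Field F] [Fintype F] {H : Type*} [Group H]

theorem char_two (hF : Fintype.card F = 2) : CharP F 2 :=
  charP_of_card_eq_prime hF

theorem zero_or_one (hF : Fintype.card F = 2) (t : F) : t = 0 ∨ t = 1 := by
  have := FiniteField.pow_card t
  rw [hF] at this
  by_cases h : t = 0
  · exact .inl h
  · exact .inr (mul_left_cancel₀ h (by rw [← sq, this, mul_one]))

/-- the root elements as letters -/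
def lt (x : Rt chevF4 → F → H) (k : ℕ) : H := if h : k < 48 then x ⟨k, h⟩ 1 else 1

theorem lt_rt (x : Rt chevF4 → F → H) (r : Rt chevF4) : lt x r = x r 1 := dif_pos r.2

theorem wd_one (hF : Fintype.card F = 2) {x : Rt chevF4 → F → H} (h0 : ∀ r, x r 0 = 1)
    (r s : Rt chevF4) : wd x (chevF4.commWord F r s 1 1) = ev (lt x) (tt r s) := by
  have := char_two hF
  rw [← tt_eq r r.2 s s.2, ChevalleyDatum.commWord]
  have key : ∀ l : List (ℕ × ℤ × ℕ × ℕ), (∀ c ∈ l, ∃ v : Rt chevF4, c.1 = v) →
      wd x (l.map fun c => (c.1, (c.2.1 : F) * (-1) ^ c.2.2.1 * 1 ^ c.2.2.2)) =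
        ev (lt x) ((l.filter fun c => c.2.1 % 2 = 1).map (·.1)) := by
    intro l hl
    induction l with
    | nil => rfl
    | cons c l ih =>
      obtain ⟨v, hv⟩ := hl c (by simp)
      rw [List.map_cons, hv, wd_cons, ih fun c hc => hl c (List.mem_cons_of_mem _ hc),
        CharTwo.neg_eq, one_pow, one_pow, mul_one, mul_one, List.filter_cons]
      obtain ⟨k, hk | hk⟩ := Int.even_or_odd' c.2.1
      · rw [if_neg (by simp; omega), hk, Int.cast_mul, Int.cast_ofNat, CharTwo.two_eq_zero, zero_mul,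
          h0, one_mul]
      · rw [if_pos (by simp; omega), hk, Int.cast_add, Int.cast_mul, Int.cast_ofNat,
          CharTwo.two_eq_zero, zero_mul, zero_add, Int.cast_one, List.map_cons, ev_cons, hv, lt_rt]
  exact key _ fun c hc => (mem_commTerms hc).2.2.imp fun _ h => h.1

theorem wd_zero {x : Rt chevF4 → F → H} (h0 : ∀ r, x r 0 = 1) (r s : Rt chevF4) {t u : F}
    (h : t = 0 ∨ u = 0) : wd x (chevF4.commWord F r s t u) = 1 := by
  rw [ChevalleyDatum.commWord]
  have key : ∀ l : List (ℕ × ℤ × ℕ × ℕ),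
      (∀ c ∈ l, 0 < c.2.2.1 ∧ 0 < c.2.2.2 ∧ ∃ v : Rt chevF4, c.1 = v) →
      wd x (l.map fun c => (c.1, (c.2.1 : F) * (-t) ^ c.2.2.1 * u ^ c.2.2.2)) = 1 := by
    intro l hl
    induction l with
    | nil => rfl
    | cons c l ih =>
      obtain ⟨h1, h2, v, hv⟩ := hl c (by simp)
      rw [List.map_cons, hv, wd_cons, ih fun c hc => hl c (List.mem_cons_of_mem _ hc), mul_one]
      rcases h with rfl | rfl
      · rw [neg_zero, zero_pow h1.ne', mul_zero, zero_mul, h0]
      · rw [zero_pow h2.ne', mul_zero, h0]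
  exact key _ fun c hc => ⟨(mem_commTerms hc).1, (mem_commTerms hc).2.1,
    (mem_commTerms hc).2.2.imp fun _ h => h.1⟩

theorem rel_sq (hF : Fintype.card F = 2) (S : StSys chevF4 F H) {r : ℕ} (hr : r < 48) :
    lt S.x r * lt S.x r = 1 := by
  have := char_two hF
  rw [lt, dif_pos hr, ← S.add, CharTwo.add_self_eq_zero, S.x_zero]

theorem rel_comm (hF : Fintype.card F = 2) (S : StSys chevF4 F H) {r s : ℕ} (hr : r < 48)
    (hs : s < 48) (h1 : s ≠ r) (h2 : s ≠ 47 - r) :
    ev (lt S.x) [s, r] = ev (lt S.x) (r :: s :: tt r s) := by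
  have := S.comm ⟨r, hr⟩ ⟨s, hs⟩ (fun e => h1 (congrArg Fin.val e))
    (fun e => h2 ((congrArg Fin.val e).trans (ng_val _))) 1 1
  rw [wd_one hF S.x_zero] at this
  simp only [ev_cons, ev_nil, mul_one, ← mul_assoc]
  rw [lt, lt, dif_pos hr, dif_pos hs]
  exact this

variable (F) in
theorem theta_inj : Function.Injective ((scSys chevF4 F).θG sc_grp) := by
  rw [← MonoidHom.ker_eq_bot_iff, StSys.ker_θG, (r3_of_finite _ sc_grp).center_eq sc_grp, ker_F4,
    Subgroup.map_bot]

theorem pgen_odd (hF : Fintype.card F = 2) {p : ℕ} (hp : p.Coprime 2) :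
    Schur.PGen (chevF4.group F) p [] := by
  intro Γ _ _ σ hσ
  have := char_two hF
  refine ⟨fun _ => 1, by simp, fun x a hx => ?_⟩
  obtain ⟨k, m, hm, hc⟩ := Nat.exists_eq_pow_mul_and_not_dvd (Nat.card_pos (α := Γ)).ne' 2 (by norm_num)
  let N : Subgroup Γ :=
    { carrier := {z | z ∈ σ.ker ∧ z ^ 2 ^ k = 1}
      mul_mem' := fun {a b} ha hb => ⟨mul_mem ha.1 hb.1, by
        rw [Commute.mul_pow (mem_center_iff.1 (hσ.2.1 hb.1) a), ha.2, hb.2, one_mul]⟩
      one_mem' := ⟨one_mem _, one_pow _⟩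
      inv_mem' := fun {a} ha => ⟨inv_mem ha.1, by rw [inv_pow, ha.2, inv_one]⟩ }
  have hN : N ≤ σ.ker := fun _ h => h.1
  have : N.Normal := ⟨fun z hz g => by
    rw [mem_center_iff.mp (hσ.2.1 hz.1) g, mul_inv_cancel_right]; exact hz⟩
  obtain ⟨ψ, hψ⟩ := (lft_of_coprime (chSys chevF4 F) (cext_quotient (cext_of_stem hσ) N hN) 2
    ((Nat.Prime.coprime_iff_not_dvd Nat.prime_two).2 hm) fun z hz => by
      induction z using QuotientGroup.induction_on with | H z => ?_
      rw [← QuotientGroup.mk_pow, QuotientGroup.eq_one_iff]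
      exact ⟨pow_mem hz _, by rw [← pow_mul, mul_comm, ← hc, pow_card_eq_one']⟩).sc
  have h1 : ∀ y, QuotientGroup.lift N σ hN (ψ y) = (scSys chevF4 F).θG sc_grp y :=
    DFunLike.congr_fun hψ
  obtain ⟨⟨z, y, hy⟩, hz⟩ := surjective_of_stem hσ
    (η := (ψ.range.comap (QuotientGroup.mk' N)).subtype) (fun g => by
      obtain ⟨y, rfl⟩ := StSys.θG_surjective (scSys chevF4 F) sc_grp g
      obtain ⟨z, hz⟩ := QuotientGroup.mk'_surjective N (ψ y)
      exact ⟨⟨z, y, hz.symm⟩, ((congrArg _ hz).symm.trans (rfl : QuotientGroup.lift N σ hN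
        (QuotientGroup.mk' N z) = σ z)).symm.trans (h1 y)⟩) x
  obtain rfl : z = x := hz
  have h2 : y = 1 := theta_inj F (by rw [← h1, hy, map_one]; exact x.2)
  rw [h2, map_one, eq_comm, QuotientGroup.mk'_apply, QuotientGroup.eq_one_iff] at hy
  have h3 : x = 1 := Subtype.ext (Schur.eq_one_of_coprime (Nat.Coprime.pow a k hp)
    (congrArg Subtype.val hx) hy.2)
  rw [h3]; exact one_mem _

/-- the letters for the certificate -/
def sl (S : StSys chevF4 F H) (k : ℕ) : H :=
  if k < 24 then lt S.x (k + 24) else if h : k - 24 < 4 then S.n (sim ⟨k - 24, h⟩) 1 else 1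

theorem ev_sl (S : StSys chevF4 F H) {w : List ℕ} (h : ∀ k ∈ w, k < 24) :
    ev (sl S) w = ev (lt S.x) (w.map (· + 24)) := by
  induction w with
  | nil => rfl
  | cons a w ih =>
    rw [List.map_cons, ev_cons, ev_cons, ih fun k hk => h k (List.mem_cons_of_mem _ hk), sl,
      if_pos (h a (by simp))]

theorem shape : Schur.PCShape 24 (Schur.Wt T) ∧ 24 ≤ 63 ∧ Schur.tri 24 ≤ 392 ∧
    ∀ e ∈ Y, (∀ x ∈ e.2.1, x < 63) ∧ ∀ x ∈ e.2.2, x < 63 := by decide +kernel

theorem T_eq : ∀ g < 24, Schur.Wt T g g = [] ∧ ∀ x < g,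
    (Schur.Wt T g x).map (· + 24) = (g + 24) :: tt (x + 24) (g + 24) := by decide +kernel

theorem Y_eq : ∀ e ∈ Y, ∃ i : Ix chevF4, ∃ r : Rt chevF4, 24 ≤ (r : ℕ) ∧ 24 ≤ (rf i r : ℕ) ∧
    e = ((i : ℕ) + 24, [(r : ℕ) - 24], [(rf i r : ℕ) - 24]) := by decide +kernel

theorem sl_rt (S : StSys chevF4 F H) {r : Rt chevF4} (h : 24 ≤ (r : ℕ)) : sl S (r - 24) = S.x r 1 := by
  have : (r : ℕ) < 48 := r.2
  rw [sl, if_pos (by omega), Nat.sub_add_cancel h, lt_rt]

theorem pgen_two (hF : Fintype.card F = 2) [Finite (chevF4.group F)] :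
    Schur.PGen (chevF4.group F) 2 [1] := by
  have := char_two hF
  let S := chSys chevF4 F
  refine Schur.pgen_of (s := sl S) (n := 24) (p2 := 0) (J := 392) (T := T) (Y := Y) Nat.prime_two rfl
    ?_ ?_ ?_ shape (E := 1) (I := I) ins ord (a := 1) tgt (by decide +kernel)
  · intro e he
    rcases List.mem_append.1 he with he | he
    · obtain ⟨g, hg, he⟩ := List.mem_flatMap.1 he
      obtain ⟨x, hx, rfl⟩ := List.mem_map.1 he
      rw [List.mem_range] at hg hx
      by_cases h : x = g
      · subst h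
        simp only [Schur.lhs, Schur.rhs, if_pos, (T_eq x hg).1, Schur.ev_replicate, ev_nil, sq]
        rw [sl, if_pos hg]
        exact rel_sq hF S (by omega)
      · simp only [Schur.lhs, Schur.rhs, if_neg h]
        rw [ev_sl S (by simp; omega), ev_sl S (List.forall_mem_cons.2 ⟨by omega, fun z hz =>
          (shape.1 g hg x (by omega) z hz).2⟩), List.map_cons (l := Schur.Wt T g x),
          (T_eq g hg).2 x (by omega)]
        exact rel_comm hF S (r := x + 24) (s := g + 24) (by omega) (by omega) (by omega) (by omega)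
    · obtain ⟨e, hy, rfl⟩ := List.mem_map.1 he
      obtain ⟨i, r, h1, h2, rfl⟩ := Y_eq e hy
      have h3 : sl S (i + 24) = S.n (sim i) 1 := by
        rw [sl, if_neg (by omega), dif_pos (by rw [Nat.add_sub_cancel]; exact i.2)]
        simp
      have h4 := S.n_sim_conj i one_ne_zero r 1
      rw [one_zpow, mul_one, mul_one, (zero_or_one hF _).resolve_left (etaF_ne_zero i r),
        mul_inv_eq_iff_eq_mul] at h4
      simp only [ev_cons, ev_nil, List.cons_append, List.nil_append, mul_one, h3, sl_rt S h1,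
        sl_rt S h2]
      exact h4
  · have h1 : S.U ≤ gen (sl S) 24 := S.XS_le.2 fun r hr t => by
      rcases zero_or_one hF t with rfl | rfl
      · rw [S.x_zero]; exact one_mem _
      · have : (r : ℕ) < 48 := r.2
        rw [← sl_rt S ((pos_iff r).1 hr)]
        exact letter_mem_gen (by omega)
    have h2 : {r : Rt chevF4 | Pos r}.ncard = 24 := by
      rw [show {r : Rt chevF4 | Pos r} = ↑(Finset.univ.filter fun r : Rt chevF4 => 24 ≤ (r : ℕ)) by
        ext r; simp [pos_iff], Set.ncard_coe_finset]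
      decide +kernel
    have := card_le_of_le h1
    rwa [S.card_U, h2, Nat.card_eq_fintype_card, hF] at this
  · rw [S1062.result hF]; norm_num

theorem eqs : ∀ r < 48, ∀ e ∈ Er r, ev Mm e.1 = ev Mm e.2 := by
  intro r hr
  interval_cases r
  exacts [er0, er1, er2, er3, er4, er5, er6, er7, er8, er9, er10, er11, er12, er13, er14, er15, er16, er17, er18, er19, er20, er21, er22, er23, er24, er25, er26, er27, er28, er29, er30, er31, er32, er33, er34, er35, er36, er37, er38, er39, er40, er41, er42, er43, er44, er45, er46, er47]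

theorem mm_sq : ∀ r < 49, Mm r * Mm r = 1 := fun r hr => by
  by_cases h : r < 48
  · simpa using eqs r h ([r, r], []) (List.mem_cons_self ..)
  · rw [show r = 48 by omega, m48, neg_mul_neg, one_mul]

/-- the letters of the cover -/
noncomputable def un (k : ℕ) : GL (Fin 52) (ZMod 5) :=
  if h : k < 49 then ⟨Mm k, Mm k, mm_sq k h, mm_sq k h⟩ else 1

theorem un_48 : un 48 = -1 := Units.ext m48

theorem un_rel {r s : ℕ} (hr : r < 48) (hs : s < 48) (h1 : s ≠ r) (h2 : s ≠ 47 - r) :
    ev un [s, r] = ev un (r :: s :: (tt r s ++ tz r s)) := by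
  have key : ∀ w : List ℕ, (∀ k ∈ w, k < 49) → ((ev un w : GL _ _) : Matrix _ _ _) = ev Mm w :=
    fun w hw => (map_ev un (Units.coeHom _) w).trans (ev_congr fun k hk => by
      simp [un, hw k hk])
  apply Units.ext
  rw [key _ (by simp; omega), key _ (by
    simp only [List.forall_mem_cons, List.forall_mem_append]
    refine ⟨by omega, by omega, fun k hk => (tt_lt r hr s hs k hk).trans (by omega), ?_⟩
    unfold tz; split_ifs <;> simp)]
  exact eqs r hr (_, _) (List.mem_cons_of_mem _ (List.mem_map.2 ⟨s, List.mem_filter.2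
    ⟨List.mem_range.2 hs, by simp [h1, h2]⟩, rfl⟩))

theorem low (hF : Fintype.card F = 2) [Finite (chevF4.group F)] :
    Schur.Low (chevF4.group F) 2 := by
  classical
  have := char_two hF
  let Z : Subgroup (GL (Fin 52) (ZMod 5)) := zpowers (-1)
  have hZ : Z ≤ center _ := zpowers_le.2 (mem_center_iff.2 fun g => by simp)
  have : Z.Normal := ⟨fun z hz g => by
    rw [mem_center_iff.mp (hZ hz) g, mul_inv_cancel_right]; exact hz⟩
  let π := QuotientGroup.mk' Z
  let x : Rt chevF4 → F → _ := fun r t => if t = 0 then 1 else π (un r)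
  have x0 : ∀ r, x r 0 = 1 := fun r => if_pos rfl
  have x1 : ∀ r, x r 1 = π (un r) := fun r => if_neg one_ne_zero
  have hl : ∀ k < 48, lt x k = π (un k) := fun k hk => (dif_pos hk).trans (x1 _)
  have h48 : π (un 48) = 1 := (QuotientGroup.eq_one_iff _).2 (un_48 ▸ mem_zpowers _)
  have hx : RelAB x := ⟨fun r t u => by
      rcases zero_or_one hF t with rfl | rfl
      · rw [zero_add, x0, one_mul]
      rcases zero_or_one hF u with rfl | rfl
      · rw [add_zero, x0, mul_one]
      have : (r : ℕ) < 49 := r.2.trans (by decide)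
      rw [CharTwo.add_self_eq_zero, x0, x1, ← map_mul, show un r * un r = 1 from Units.ext (by
        simpa [un, this] using mm_sq r this), map_one], fun r s h1 h2 t u => by
      rcases zero_or_one hF t with rfl | rfl
      · rw [wd_zero x0 r s (.inl rfl), x0]; simp
      rcases zero_or_one hF u with rfl | rfl
      · rw [wd_zero x0 r s (.inr rfl), x0]; simp
      have h3 := congrArg π (un_rel r.2 s.2 (fun e => h1 (Fin.ext e))
        fun e => h2 (Fin.ext (e.trans (ng_val r).symm)))
      have h4 : π (ev un (tz r s)) = 1 := by unfold tz; split_ifs <;> simp [h48]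
      rw [wd_one hF x0, x1, x1, ev_congr (t := fun k => π (un k)) fun k hk =>
        hl k (tt_lt r r.2 s s.2 k hk), ← map_ev]
      simpa [ev_append, h4, mul_assoc] using h3⟩
  let e := MulEquiv.ofBijective _ ⟨theta_inj F, StSys.θG_surjective (scSys chevF4 F) sc_grp⟩
  let ρ := (scLift hx).comp e.symm.toMonoidHom
  let S := chSys chevF4 F
  have hρ : ∀ r t, ρ (S.x r t) = x r t := fun r t => by
    rw [← scLift_x hx]
    exact congrArg (scLift hx) (e.symm_apply_eq.2 (StSys.θG_x (scSys chevF4 F) sc_grp r t).symm)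
  let E : Subgroup (chevF4.group F × GL (Fin 52) (ZMod 5)) :=
    (ρ.comp (MonoidHom.fst _ _)).eqLocus (π.comp (MonoidHom.snd _ _))
  let ξ : E →* chevF4.group F := (MonoidHom.fst _ _).comp E.subtype
  have hξ : CExt ξ := ⟨fun g => let ⟨m, hm⟩ := QuotientGroup.mk'_surjective Z (ρ g); ⟨⟨(g, m), hm.symm⟩, rfl⟩,
    fun a ha => mem_center_iff.2 fun b => by
      have h1 : a.1.1 = 1 := ha
      have h2 : ρ a.1.1 = π a.1.2 := a.2
      rw [h1, map_one, eq_comm, QuotientGroup.mk'_apply, QuotientGroup.eq_one_iff] at h2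
      exact Subtype.ext (Prod.ext (by simp [h1]) (mem_center_iff.1 (hZ h2) _))⟩
  have := perfect_single (F := F) single_F4
  have : Group.IsPerfect (chevF4.group F) :=
    Group.IsPerfect.ofSurjective (f := e.toMonoidHom) e.surjective
  refine ⟨_, _, inferInstance, _, stem_commutator hξ, ?_⟩
  let a : ℕ → E := fun k => if h : k < 49 then ⟨(lt S.x k, un k), by
    change ρ (lt S.x k) = π (un k)
    by_cases h' : k < 48
    · rw [lt, dif_pos h', hρ, x1]
    · rw [lt, dif_neg h', map_one, show k = 48 by omega, h48]⟩ else 1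
  have av : ∀ k < 49, (a k).1 = (lt S.x k, un k) := fun k hk => by simp only [a, dif_pos hk]
  have l48 : lt S.x 48 = 1 := dif_neg (by decide)
  have key : ∀ r < 48, ∀ s < 48, s ≠ r → s ≠ 47 - r → ev a (tt r s ++ tz r s) ∈ commutator E :=
    fun r hr s hs h1 h2 => by
      have h3 : ∀ w : List ℕ, (∀ k ∈ w, k < 49) → (ev a w).1 = (ev (lt S.x) w, ev un w) :=
        fun w hw => by
          rw [← Subgroup.subtype_apply, map_ev, ev_congr (t := fun k => (lt S.x k, un k))
            fun k hk => (subtype_apply _).trans (av k (hw k hk))]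
          exact Prod.ext (map_ev _ (MonoidHom.fst _ _) w) (map_ev _ (MonoidHom.snd _ _) w)
      have h4 : ev a [s, r] = ev a (r :: s :: (tt r s ++ tz r s)) := Subtype.ext (by
        rw [h3 _ (by simp; omega), h3 _ (by
          simp only [List.forall_mem_cons, List.forall_mem_append]
          refine ⟨by omega, by omega, fun k hk => (tt_lt r hr s hs k hk).trans (by omega), ?_⟩
          unfold tz; split_ifs <;> simp), un_rel hr hs h1 h2, rel_comm hF S hr hs h1 h2]
        congr 1
        unfold tz; split_ifs <;> simp [ev_append, l48])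
      have h5 : ev a (tt r s ++ tz r s) = ⁅(a s)⁻¹, (a r)⁻¹⁆ := by
        simp only [ev_cons, ev_nil, mul_one] at h4
        rw [commutatorElement_def, inv_inv, inv_inv, mul_assoc, h4]; group
      rw [h5]
      exact commutator_mem_commutator (mem_top _) (mem_top _)
  have k1 := key 29 (by decide) 33 (by decide) (by decide) (by decide)
  have k2 := key 24 (by decide) 41 (by decide) (by decide) (by decide)
  have k3 := key 26 (by decide) 34 (by decide) (by decide) (by decide)
  rw [show tt 29 33 ++ tz 29 33 = [36] by decide +kernel, ev_single] at k1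
  rw [show tt 24 41 ++ tz 24 41 = [42] by decide +kernel, ev_single] at k2
  rw [show tt 26 34 ++ tz 26 34 = [36, 42, 48] by decide +kernel, ev_cons, ev_cons, ev_single,
    mul_mem_cancel_left k1, mul_mem_cancel_left k2] at k3
  refine Finite.one_lt_card_iff_nontrivial.2 ⟨⟨⟨a 48, k3⟩, ?_⟩, 1, fun h => ?_⟩
  · exact (congrArg Prod.fst (av 48 (by decide))).trans l48
  · have h1 : (a 48).1.2 = 1 := congrArg (fun z => z.1.1.1.2) h
    rw [av 48 (by decide), un_48] at h1
    have h2 := congrArg (fun z : GL (Fin 52) (ZMod 5) => z.1 0 0) h1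
    revert h2
    simp only [Units.val_neg, Units.val_one, Matrix.neg_apply, Matrix.one_apply_eq]
    decide

theorem has (hF : Fintype.card F = 2) : HasCyclicSchurMultiplier (chevF4.group F) 2 := by
  have hc := S1062.result hF
  have : Finite (chevF4.group F) := Nat.finite_of_card_ne_zero (by rw [hc]; norm_num)
  refine Schur.hasSchur_of (by simp) (Schur.up_cyc fun p hp => ?_) (low hF)
  by_cases h : p = 2
  · exact ⟨1, by simp [h], h ▸ pgen_two hF⟩
  · exact ⟨0, by simp, (pgen_odd hF ((Nat.coprime_primes hp Nat.prime_two).2 h)).of_nil _⟩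

end Cfsg.Agent.Comp.F4M
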