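import Cfsg.Agent.Comp.F4M.Mat
import Cfsg.Agent.Chev.All2

/-! The tables agree with the datum of type `F₄`. -/

set_option autoImplicit false
set_option maxRecDepth 100000

namespace Cfsg.Agent.Comp.F4M
open Cfsg.Agent.Comp Cfsg.Lie Cfsg.Agent.Chev

attribute [local instance] good2F4

theorem tt_eq : ∀ r < 48, ∀ s < 48,
    ((chevF4.commTerms r s).filter fun c => c.2.1 % 2 = 1).map (·.1) = tt r s := by decide +kernel

theorem tt_lt : ∀ r < 48, ∀ s < 48, ∀ k ∈ tt r s, k < 48 := by decide +kernel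

theorem ng_val : ∀ r : Rt chevF4, (ng r : ℕ) = 47 - r := by decide +kernel

theorem pos_iff : ∀ r : Rt chevF4, Pos r ↔ 24 ≤ (r : ℕ) := by decide +kernel

theorem m48 : Mm 48 = -1 := by rw [Mfast]; decide +kernel

end Cfsg.Agent.Comp.F4M
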